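/-
Arithmetic for the bound `|G| < p^(3k)` and `|G|^3 < p^(8k)` on the groups of Lie type.
-/
import Mathlib

set_option autoImplicit false

namespace CfsgLib.OB

lemma fact_of_eq {p c d N M : ℕ} (hp : p.Prime) (h : d * c = p ^ N * M) (hd : ¬ p ∣ d) (hM : ¬ p ∣ M) : c.factorization p = N := by
  have hd0 : d ≠ 0 := fun h0 => hd (h0 ▸ dvd_zero p)
  have hM0 : M ≠ 0 := fun h0 => hM (h0 ▸ dvd_zero p)
  have hc0 : c ≠ 0 := by
    rintro rfl
    rw [mul_zero] at h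
    exact (mul_ne_zero (pow_ne_zero _ hp.ne_zero) hM0) h.symm
  have h1 : (d * c).factorization p = (p ^ N * M).factorization p := by rw [h]
  rw [Nat.factorization_mul hd0 hc0, Nat.factorization_mul (pow_ne_zero _ hp.ne_zero) hM0, Nat.factorization_pow] at h1
  simp only [Finsupp.add_apply, Finsupp.smul_apply, hp.factorization_self, smul_eq_mul, mul_one] at h1
  rw [Nat.factorization_eq_zero_of_not_dvd hd, Nat.factorization_eq_zero_of_not_dvd hM] at h1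
  omega

/-- The value of the factorization for `q = p ^ f`. -/
lemma fact_eq {p f N c d M : ℕ} (hp : p.Prime) (h : d * c = (p ^ f) ^ N * M) (hd : ¬ p ∣ d) (hM : ¬ p ∣ M) : c.factorization p = f * N := by
  apply fact_of_eq hp _ hd hM
  rw [h, ← pow_mul]

/-- The first bound alone. -/
theorem main_bound₁ {p f N c d M : ℕ} (hp : p.Prime) (h : d * c = (p ^ f) ^ N * M) (hd : ¬ p ∣ d) (hM : ¬ p ∣ M)
    (hf : 1 ≤ f) (hME : M < (p ^ f) ^ (2 * N)) : c < p ^ (3 * c.factorization p) := by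
  have hfe := fact_eq hp h hd hM
  have hd0 : 1 ≤ d := Nat.pos_of_ne_zero (fun h0 => hd (h0 ▸ dvd_zero p))
  have hq : 0 < p ^ f := pow_pos hp.pos f
  have e1 : p ^ (3 * c.factorization p) = (p ^ f) ^ N * (p ^ f) ^ (2 * N) := by
    rw [hfe, ← pow_mul, ← pow_mul, ← pow_add]
    congr 1
    ring
  rw [e1]
  calc c ≤ d * c := Nat.le_mul_of_pos_left c hd0
    _ = (p ^ f) ^ N * M := h
    _ < (p ^ f) ^ N * (p ^ f) ^ (2 * N) := Nat.mul_lt_mul_of_pos_left hME (pow_pos hq N)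

/-- The main reduction. -/
theorem main_bound {p f N c d M E : ℕ} (hp : p.Prime) (h : d * c = (p ^ f) ^ N * M) (hd : ¬ p ∣ d) (hM : ¬ p ∣ M)
    (hf : 1 ≤ f) (hME : M < (p ^ f) ^ E) (hE : 3 * E ≤ 5 * N) :
    c < p ^ (3 * c.factorization p) ∧ c ^ 3 < p ^ (8 * c.factorization p) := by
  have hfe := fact_eq hp h hd hM
  have hd0 : 1 ≤ d := Nat.pos_of_ne_zero (fun h0 => hd (h0 ▸ dvd_zero p))
  have hq : 1 < p ^ f := Nat.one_lt_pow (by omega) hp.one_lt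
  have hE2 : E ≤ 2 * N := by omega
  constructor
  · apply main_bound₁ hp h hd hM hf
    exact lt_of_lt_of_le hME (Nat.pow_le_pow_right (by omega) hE2)
  · have e1 : p ^ (8 * c.factorization p) = (p ^ f) ^ (8 * N) := by
      rw [hfe, ← pow_mul]
      congr 1
      ring
    rw [e1]
    have h1 : c ≤ (p ^ f) ^ N * M := by
      calc c ≤ d * c := Nat.le_mul_of_pos_left c hd0
        _ = (p ^ f) ^ N * M := h
    have h2 : c ^ 3 ≤ ((p ^ f) ^ N * M) ^ 3 := Nat.pow_le_pow_left h1 3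
    have h3 : M ^ 3 < ((p ^ f) ^ E) ^ 3 := Nat.pow_lt_pow_left hME (by norm_num)
    calc c ^ 3 ≤ ((p ^ f) ^ N * M) ^ 3 := h2
      _ = (p ^ f) ^ (3 * N) * M ^ 3 := by ring
      _ < (p ^ f) ^ (3 * N) * ((p ^ f) ^ E) ^ 3 := Nat.mul_lt_mul_of_pos_left h3 (pow_pos (by omega) _)
      _ = (p ^ f) ^ (3 * N + 3 * E) := by ring
      _ ≤ (p ^ f) ^ (8 * N) := Nat.pow_le_pow_right (by omega) (by omega)

lemma nd_sub {p q a : ℕ} (hp : p.Prime) (hpq : p ∣ q) (hq : 1 ≤ q) (ha : 1 ≤ a) : ¬ p ∣ q ^ a - 1 := by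
  intro h
  have h1 : p ∣ q ^ a := dvd_pow hpq (by omega)
  have h2 : 1 ≤ q ^ a := Nat.one_le_pow _ _ hq
  have h3 := Nat.dvd_sub h1 h
  have h4 : q ^ a - (q ^ a - 1) = 1 := by omega
  rw [h4] at h3
  exact hp.one_lt.ne' (Nat.dvd_one.1 h3)

lemma nd_add {p q a : ℕ} (hp : p.Prime) (hpq : p ∣ q) (ha : 1 ≤ a) : ¬ p ∣ q ^ a + 1 := by
  intro h
  have h1 : p ∣ q ^ a := dvd_pow hpq (by omega)
  have h3 := (Nat.dvd_add_right h1).1 h
  exact hp.one_lt.ne' (Nat.dvd_one.1 h3)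

lemma nd_mul {p x y : ℕ} (hp : p.Prime) (hx : ¬ p ∣ x) (hy : ¬ p ∣ y) : ¬ p ∣ x * y := by
  intro h
  rcases (Nat.Prime.dvd_mul hp).1 h with h | h
  · exact hx h
  · exact hy h

lemma nd_prod {ι : Type*} {p : ℕ} (hp : p.Prime) (s : Finset ι) (f : ι → ℕ) (h : ∀ i ∈ s, ¬ p ∣ f i) : ¬ p ∣ ∏ i ∈ s, f i := by
  intro h1
  obtain ⟨i, hi, h2⟩ := (Prime.exists_mem_finset_dvd hp.prime h1)
  exact h i hi h2

lemma nd_gcd_right {p a b : ℕ} (hb : ¬ p ∣ b) : ¬ p ∣ Nat.gcd a b := fun h => hb (h.trans (Nat.gcd_dvd_right a b))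

lemma sub_lt {q a : ℕ} (hq : 1 ≤ q) : q ^ a - 1 < q ^ a := Nat.sub_lt (Nat.pow_pos hq) Nat.one_pos

lemma add_lt {q a : ℕ} (hq : 2 ≤ q) (ha : 1 ≤ a) : q ^ a + 1 < q ^ (a + 1) := by
  have h1 : 2 ≤ q ^ a := le_trans hq (Nat.le_self_pow (by omega) q)
  rw [pow_succ]
  nlinarith

/-- The product of the `q^(2i)-1`. -/
lemma prod_even_le {q : ℕ} (hq : 1 ≤ q) (m : ℕ) : ∏ i ∈ Finset.range m, (q ^ (2 * (i + 1)) - 1) ≤ q ^ (m * (m + 1)) := by
  induction m with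
  | zero => simp
  | succ m ih =>
    rw [Finset.prod_range_succ]
    have e1 : (m + 1) * (m + 1 + 1) = m * (m + 1) + 2 * (m + 1) := by ring
    rw [e1, pow_add]
    exact Nat.mul_le_mul ih (Nat.sub_le _ _)

lemma prod_even_lt {q : ℕ} (hq : 2 ≤ q) {m : ℕ} (hm : 1 ≤ m) : ∏ i ∈ Finset.range m, (q ^ (2 * (i + 1)) - 1) < q ^ (m * (m + 1)) := by
  obtain ⟨k, rfl⟩ : ∃ k, m = k + 1 := ⟨m - 1, by omega⟩
  rw [Finset.prod_range_succ]
  have e1 : (k + 1) * (k + 1 + 1) = k * (k + 1) + 2 * (k + 1) := by ring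
  rw [e1, pow_add]
  exact Nat.mul_lt_mul_of_le_of_lt (prod_even_le (by omega) k) (sub_lt (by omega)) (Nat.pow_pos (by omega))

/-- The exponent sum for type `A`. -/
def eA (k : ℕ) : ℕ := ∑ j ∈ Finset.range k, (j + 2)

lemma eA_mul_two (k : ℕ) : 2 * eA k = k * (k + 3) := by
  induction k with
  | zero => simp [eA]
  | succ k ih =>
    unfold eA at ih ⊢
    rw [Finset.sum_range_succ, mul_add, ih]
    ring

lemma prod_A_lt {q : ℕ} (hq : 2 ≤ q) {k : ℕ} (hk : 1 ≤ k) : ∏ j ∈ Finset.range k, (q ^ (j + 2) - 1) < q ^ eA k := by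
  unfold eA
  rw [← Finset.prod_pow_eq_pow_sum]
  apply Finset.prod_lt_prod_of_nonempty
  · intro j _
    have : 1 < q ^ (j + 2) := Nat.one_lt_pow (by omega) (by omega)
    omega
  · intro j _
    exact sub_lt (by omega)
  · exact ⟨0, Finset.mem_range.2 (by omega)⟩

/-- The order of `GL`. -/
lemma prod_GL {q : ℕ} (hq : 1 ≤ q) (k : ℕ) :
    ∏ i : Fin (k + 1), (q ^ (k + 1) - q ^ (i : ℕ)) = q ^ ((k + 1) * k / 2) * ((∏ j ∈ Finset.range k, (q ^ (j + 2) - 1)) * (q - 1)) := by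
  rw [Fin.prod_univ_eq_prod_range (fun i => q ^ (k + 1) - q ^ i) (k + 1)]
  have e1 : ∀ i ∈ Finset.range (k + 1), q ^ (k + 1) - q ^ i = q ^ i * (q ^ (k - i + 1) - 1) := by
    intro i hi
    have hi' : i ≤ k := Nat.lt_succ_iff.1 (Finset.mem_range.1 hi)
    rw [Nat.mul_sub, mul_one, ← pow_add]
    congr 2
    omega
  rw [Finset.prod_congr rfl e1, Finset.prod_mul_distrib, Finset.prod_pow_eq_pow_sum, Finset.sum_range_id]
  congr 1
  have h2 := Finset.prod_range_reflect (fun j => q ^ (j + 1) - 1) (k + 1)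
  simp only [Nat.add_sub_cancel] at h2
  rw [h2, Finset.prod_range_succ']
  simp

lemma mlt {a b x y q : ℕ} (h1 : a < q ^ x) (h2 : b < q ^ y) : a * b < q ^ (x + y) := by
  rw [pow_add]
  exact Nat.mul_lt_mul'' h1 h2

lemma final {p q f N c d M E : ℕ} (hp : p.Prime) (hq : q = p ^ f) (hf : 1 ≤ f) (h : d * c = q ^ N * M) (hd : ¬ p ∣ d) (hM : ¬ p ∣ M)
    (hME : M < q ^ E) (hE : 3 * E ≤ 5 * N) : c < p ^ (3 * c.factorization p) ∧ c ^ 3 < p ^ (8 * c.factorization p) := by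
  subst hq
  exact main_bound hp h hd hM hf hME hE

/-- Roots of prime powers. -/
lemma exists_pow_of_pow {p q n t : ℕ} (hp : p.Prime) (ht : t ≠ 0) (h : q ^ t = p ^ n) (hn : 1 ≤ n) : ∃ f, 1 ≤ f ∧ q = p ^ f := by
  have h1 : q ∣ p ^ n := by
    rw [← h]
    exact dvd_pow_self q ht
  obtain ⟨f, -, hf⟩ := (Nat.dvd_prime_pow hp).1 h1
  refine ⟨f, ?_, hf⟩
  by_contra hf0
  have hf1 : f = 0 := by omega
  rw [hf1, pow_zero] at hf
  rw [hf, one_pow] at h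
  have h2 : 1 < p ^ n := Nat.one_lt_pow (by omega) hp.one_lt
  omega

/-- The factor for type `²A`. -/
lemma factor_U_lt {q : ℕ} (hq : 2 ≤ q) (i : ℕ) : (if Even (i + 1) then q ^ (i + 1 + 1) + 1 else q ^ (i + 1 + 1) - 1) < q ^ (i + 3) := by
  split_ifs
  · exact add_lt hq (by omega)
  · calc q ^ (i + 1 + 1) - 1 < q ^ (i + 1 + 1) := sub_lt (by omega)
      _ ≤ q ^ (i + 3) := Nat.pow_le_pow_right (by omega) (by omega)

/-- The exponent sum for type `²A`. -/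
def eU (k : ℕ) : ℕ := ∑ j ∈ Finset.range k, (j + 3)

lemma eU_mul_two (k : ℕ) : 2 * eU k = k * (k + 5) := by
  induction k with
  | zero => simp [eU]
  | succ k ih =>
    unfold eU at ih ⊢
    rw [Finset.sum_range_succ, mul_add, ih]
    ring

lemma prod_U_lt {q : ℕ} (hq : 2 ≤ q) {k : ℕ} (hk : 1 ≤ k) : ∏ i ∈ Finset.range k, (if Even (i + 1) then q ^ (i + 1 + 1) + 1 else q ^ (i + 1 + 1) - 1) < q ^ eU k := by
  unfold eU
  rw [← Finset.prod_pow_eq_pow_sum]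
  apply Finset.prod_lt_prod_of_nonempty
  · intro j _
    split_ifs
    · omega
    · have : 1 < q ^ (j + 1 + 1) := Nat.one_lt_pow (by omega) (by omega)
      omega
  · intro j _
    exact factor_U_lt hq j
  · exact ⟨0, Finset.mem_range.2 (by omega)⟩

lemma U2_lt {q : ℕ} (hq : 2 ≤ q) : (q ^ 2 - 1) * (q ^ 3 + 1) < q ^ 5 := by
  have h1 : q ^ 2 < q ^ 3 := Nat.pow_lt_pow_right (by omega) (by norm_num)
  have h2 : 1 ≤ q ^ 2 := Nat.one_le_pow _ _ (by omega)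
  obtain ⟨A, hA⟩ : ∃ A, q ^ 2 = A + 1 := ⟨q ^ 2 - 1, by omega⟩
  have e1 : q ^ 5 = q ^ 2 * q ^ 3 := by ring
  rw [e1, hA]
  simp only [Nat.add_sub_cancel]
  rw [hA] at h1
  nlinarith

lemma three_mul_le_U {k : ℕ} (hk : 5 ≤ k) : 3 * eU k ≤ 5 * ((k + 1) * k / 2) := by
  have h1 := eU_mul_two k
  have h2 : (k + 1) * k / 2 * 2 = (k + 1) * k := Nat.div_mul_cancel (by
    have := Nat.even_mul_succ_self k
    rw [mul_comm] at this
    exact this.two_dvd)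
  nlinarith

lemma three_mul_le_A {k : ℕ} (hk : 2 ≤ k) : 3 * eA k ≤ 5 * ((k + 1) * k / 2) := by
  have h1 := eA_mul_two k
  have h2 : (k + 1) * k / 2 * 2 = (k + 1) * k := Nat.div_mul_cancel (by
    have := Nat.even_mul_succ_self k
    rw [mul_comm] at this
    exact this.two_dvd)
  nlinarith

end CfsgLib.OB
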