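/-
The bound `|G| < p^(3k)` and `|G|^3 < p^(8k)` on the groups of Lie type, family by family.
-/
import Cfsg.Agent.Lib.Bound.OB
import Cfsg.Agent.S0243
import Cfsg.Agent.S0245
import Cfsg.Agent.S0246
import Cfsg.Agent.S0280
import Cfsg.Agent.S0292
import Cfsg.Agent.S0293
import Cfsg.Agent.S0294
import Cfsg.Agent.S1059
import Cfsg.Agent.S1062
import Cfsg.Agent.S1063
import Cfsg.Agent.S1064
import Cfsg.Agent.S1065
import Cfsg.Agent.S1066
import Cfsg.Agent.S1067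
import Cfsg.Agent.S1068
import Cfsg.Agent.S1069
import Cfsg.Agent.S1163
import Cfsg.Prelude.Def_LieTypeChar

set_option autoImplicit false

namespace CfsgLib.OB

open Cfsg

variable {G : Type*} [Group G] [Finite G] {p : ℕ}

/-- Packaging of the two conclusions. -/
def Concl (p c : ℕ) : Prop := c < p ^ (3 * c.factorization p) ∧ c ^ 3 < p ^ (8 * c.factorization p)

theorem fam_PSL_big {F : Type} [Field F] [Fintype F] [CharP F p] (hp : p.Prime) (k : ℕ) (hk : 2 ≤ k) :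
    Concl p (Nat.card (Matrix.ProjectiveSpecialLinearGroup (Fin (k + 1)) F)) := by
  obtain ⟨f, -, hq⟩ := FiniteField.card F p
  have hq2 : 2 ≤ Fintype.card F := Fintype.one_lt_card
  have hpq : p ∣ Fintype.card F := by
    rw [hq]
    exact dvd_pow_self p f.ne_zero
  have h0 := Cfsg.Agent.S0243.result (F := F) rfl (k + 1) (by omega)
  rw [prod_GL (by omega)] at h0
  generalize Nat.card (Matrix.ProjectiveSpecialLinearGroup (Fin (k + 1)) F) = c at h0 ⊢
  generalize Fintype.card F = q at h0 hq2 hpq hq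
  have hq1 : 0 < q - 1 := by omega
  have h1 : Nat.gcd (k + 1) (q - 1) * c = q ^ ((k + 1) * k / 2) * ∏ j ∈ Finset.range k, (q ^ (j + 2) - 1) := by
    apply Nat.eq_of_mul_eq_mul_right hq1
    calc _ = Nat.gcd (k + 1) (q - 1) * ((q - 1) * c) := by ring
      _ = _ := h0
      _ = _ := by ring
  refine final hp hq f.pos h1 ?_ ?_ (prod_A_lt hq2 (by omega)) (three_mul_le_A hk)
  · apply nd_gcd_right
    have := nd_sub (a := 1) hp hpq (by omega) le_rfl
    rwa [pow_one] at this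
  · exact nd_prod hp _ _ (fun j _ => nd_sub hp hpq (by omega) (by omega))

theorem fam_PSL_two {F : Type} [Field F] [Fintype F] [CharP F p] (hp : p.Prime) :
    Nat.card (Matrix.ProjectiveSpecialLinearGroup (Fin 2) F) < p ^ (3 * (Nat.card (Matrix.ProjectiveSpecialLinearGroup (Fin 2) F)).factorization p) ∧
      Fintype.card F = p ^ (Nat.card (Matrix.ProjectiveSpecialLinearGroup (Fin 2) F)).factorization p := by
  obtain ⟨f, -, hq⟩ := FiniteField.card F p
  have hq2 : 2 ≤ Fintype.card F := Fintype.one_lt_card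
  have hpq : p ∣ Fintype.card F := by
    rw [hq]
    exact dvd_pow_self p f.ne_zero
  have h0 := Cfsg.Agent.S0243.result (F := F) rfl 2 (by omega)
  have e0 := prod_GL (q := Fintype.card F) (by omega) 1
  simp only [show (1 + 1 : ℕ) = 2 from rfl] at e0
  rw [e0] at h0
  generalize Nat.card (Matrix.ProjectiveSpecialLinearGroup (Fin 2) F) = c at h0 ⊢
  generalize Fintype.card F = q at h0 hq2 hpq hq ⊢
  have hq1 : 0 < q - 1 := by omega
  have h1 : Nat.gcd 2 (q - 1) * c = q ^ 1 * (q ^ 2 - 1) := by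
    apply Nat.eq_of_mul_eq_mul_right hq1
    simp only [Finset.prod_range_one, zero_add] at h0
    calc _ = Nat.gcd 2 (q - 1) * ((q - 1) * c) := by ring
      _ = _ := h0
      _ = _ := by norm_num; ring
  subst hq
  have hd : ¬ p ∣ Nat.gcd 2 ((p : ℕ) ^ (f : ℕ) - 1) := by
    apply nd_gcd_right
    have := nd_sub (a := 1) hp hpq (by omega) le_rfl
    rwa [pow_one] at this
  have hM := nd_sub (a := 2) hp hpq (by omega) (by omega)
  constructor
  · refine main_bound₁ hp h1 hd hM f.pos ?_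
    rw [mul_one]
    exact sub_lt (by omega)
  · rw [fact_eq hp h1 hd hM, mul_one]

theorem fam_PSp {F : Type} [Field F] [Fintype F] [CharP F p] (hp : p.Prime) (m : ℕ) (hm : 2 ≤ m) :
    Concl p (Nat.card (Cfsg.PSp m F)) := by
  obtain ⟨f, -, hq⟩ := FiniteField.card F p
  have hq2 : 2 ≤ Fintype.card F := Fintype.one_lt_card
  have hpq : p ∣ Fintype.card F := by
    rw [hq]
    exact dvd_pow_self p f.ne_zero
  have h0 := Cfsg.Agent.S0245.result (F := F) rfl m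
  have h1 := Cfsg.Agent.S0246.result (F := F) rfl m (by omega)
  rw [Subgroup.card_eq_card_quotient_mul_card_subgroup (Subgroup.center (Matrix.symplecticGroup (Fin m) F)), h1, mul_comm] at h0
  generalize Nat.card (Cfsg.PSp m F) = c at h0 ⊢
  generalize Fintype.card F = q at h0 hq2 hpq hq
  refine final hp hq f.pos h0 ?_ ?_ (prod_even_lt hq2 (by omega)) (by nlinarith)
  · apply nd_gcd_right
    have := nd_sub (a := 1) hp hpq (by omega) le_rfl
    rwa [pow_one] at this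
  · exact nd_prod hp _ _ (fun j _ => nd_sub hp hpq (by omega) (by omega))

theorem fam_PSU {F : Type} [Field F] [Fintype F] [CharP F p] (hp : p.Prime) {q : ℕ} (hF : Fintype.card F = q ^ 2) (k : ℕ) (hk : 2 ≤ k) :
    Concl p (Nat.card (Cfsg.PSU (k + 1) F q)) := by
  obtain ⟨g, -, hg⟩ := FiniteField.card F p
  obtain ⟨f, hf1, hq⟩ := exists_pow_of_pow (t := 2) hp (by norm_num) (hF.symm.trans hg) g.pos
  have hq2 : 2 ≤ q := by
    rw [hq]
    calc 2 ≤ p := hp.two_le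
      _ ≤ p ^ f := Nat.le_self_pow (by omega) p
  have hpq : p ∣ q := by
    rw [hq]
    exact dvd_pow_self p (by omega)
  have h0 := Cfsg.Agent.S0280.result hF (k + 1) (by omega)
  rw [Finset.prod_range_succ'] at h0
  generalize Nat.card (Cfsg.PSU (k + 1) F q) = c at h0 ⊢
  have h00 : (if Even 0 then q ^ (0 + 1) + 1 else q ^ (0 + 1) - 1) = q + 1 := by simp
  rw [h00] at h0
  have hq1 : 0 < q + 1 := by omega
  have h1 : Nat.gcd (k + 1) (q + 1) * c = q ^ ((k + 1) * k / 2) * ∏ i ∈ Finset.range k, (if Even (i + 1) then q ^ (i + 1 + 1) + 1 else q ^ (i + 1 + 1) - 1) := by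
    apply Nat.eq_of_mul_eq_mul_right hq1
    simp only [Nat.add_sub_cancel] at h0
    calc _ = Nat.gcd (k + 1) (q + 1) * ((q + 1) * c) := by ring
      _ = _ := h0
      _ = _ := by ring
  have hd : ¬ p ∣ Nat.gcd (k + 1) (q + 1) := by
    apply nd_gcd_right
    have := nd_add (a := 1) hp hpq le_rfl
    rwa [pow_one] at this
  have hM : ¬ p ∣ ∏ i ∈ Finset.range k, (if Even (i + 1) then q ^ (i + 1 + 1) + 1 else q ^ (i + 1 + 1) - 1) := by
    apply nd_prod hp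
    intro j _
    split_ifs
    · exact nd_add hp hpq (by omega)
    · exact nd_sub hp hpq (by omega) (by omega)
  have hfac2 : (q ^ 2 - 1) * (q ^ 3 + 1) < q ^ 5 := U2_lt hq2
  by_cases h5 : 5 ≤ k
  · exact final hp hq hf1 h1 hd hM (prod_U_lt hq2 (by omega)) (three_mul_le_U h5)
  have hk' : k = 2 ∨ k = 3 ∨ k = 4 := by omega
  rcases hk' with rfl | rfl | rfl
  · refine final hp hq hf1 h1 hd hM (E := 5) ?_ (by norm_num)
    simpa [Finset.prod_range_succ, Nat.even_iff] using hfac2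
  · refine final hp hq hf1 h1 hd hM (E := 5 + 4) ?_ (by norm_num)
    have := mlt hfac2 (sub_lt (q := q) (a := 4) (by omega))
    simpa [Finset.prod_range_succ, Nat.even_iff] using this
  · refine final hp hq hf1 h1 hd hM (E := 5 + 4 + 6) ?_ (by norm_num)
    have := mlt (mlt hfac2 (sub_lt (q := q) (a := 4) (by omega))) (add_lt (q := q) (a := 5) hq2 (by omega))
    simpa [Finset.prod_range_succ, Nat.even_iff] using this

theorem fam_POdd {F : Type} [Field F] [Fintype F] [CharP F p] (hp : p.Prime) (hodd : Odd (Fintype.card F)) (m : ℕ) (hm : 3 ≤ m) :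
    Concl p (Nat.card (Cfsg.POmega F (Cfsg.quadFormOdd m F))) := by
  obtain ⟨f, -, hq⟩ := FiniteField.card F p
  have hq2 : 2 ≤ Fintype.card F := Fintype.one_lt_card
  have hpq : p ∣ Fintype.card F := by
    rw [hq]
    exact dvd_pow_self p f.ne_zero
  have h0 := Cfsg.Agent.S0292.result (F := F) rfl hodd m hm
  generalize Nat.card (Cfsg.POmega F (Cfsg.quadFormOdd m F)) = c at h0 ⊢
  generalize Fintype.card F = q at h0 hq2 hpq hq hodd
  refine final hp hq f.pos h0 ?_ ?_ (prod_even_lt hq2 (by omega)) (by nlinarith)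
  · intro h
    have h2 : p = 2 := (Nat.prime_dvd_prime_iff_eq hp Nat.prime_two).1 h
    subst h2
    exact (Nat.not_even_iff_odd.2 hodd) (even_iff_two_dvd.2 hpq)
  · exact nd_prod hp _ _ (fun j _ => nd_sub hp hpq (by omega) (by omega))

theorem fam_PPlus {F : Type} [Field F] [Fintype F] [CharP F p] (hp : p.Prime) (m : ℕ) (hm : 4 ≤ m) :
    Concl p (Nat.card (Cfsg.POmega F (Cfsg.quadFormPlus m F))) := by
  obtain ⟨f, -, hq⟩ := FiniteField.card F p
  have hq2 : 2 ≤ Fintype.card F := Fintype.one_lt_card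
  have hpq : p ∣ Fintype.card F := by
    rw [hq]
    exact dvd_pow_self p f.ne_zero
  have h0 := Cfsg.Agent.S0293.result (F := F) rfl m hm
  rw [mul_assoc (Fintype.card F ^ (m * (m - 1)))] at h0
  generalize Nat.card (Cfsg.POmega F (Cfsg.quadFormPlus m F)) = c at h0 ⊢
  generalize Fintype.card F = q at h0 hq2 hpq hq
  obtain ⟨j, rfl⟩ : ∃ j, m = j + 1 := ⟨m - 1, by omega⟩
  simp only [Nat.add_sub_cancel] at h0
  refine final hp hq f.pos h0 ?_ ?_ (E := (j + 1) + j * (j + 1)) ?_ (by nlinarith)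
  · exact nd_gcd_right (nd_sub hp hpq (by omega) (by omega))
  · exact nd_mul hp (nd_sub hp hpq (by omega) (by omega)) (nd_prod hp _ _ (fun j _ => nd_sub hp hpq (by omega) (by omega)))
  · rw [pow_add q (j + 1) (j * (j + 1))]
    have hq1 : 1 ≤ q := by omega
    exact Nat.mul_lt_mul_of_lt_of_le (sub_lt hq1) (prod_even_le hq1 j) (Nat.pow_pos hq1)

theorem fam_PMinus {F : Type} [Field F] [Fintype F] [CharP F p] (hp : p.Prime) (m : ℕ) (hm : 4 ≤ m) (a b : F)
    (hab : ∀ z₁ z₂ : F, z₁ ^ 2 + a * z₁ * z₂ + b * z₂ ^ 2 = 0 → z₁ = 0 ∧ z₂ = 0) :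
    Concl p (Nat.card (Cfsg.POmega F (Cfsg.quadFormMinus (m - 1) F a b))) := by
  obtain ⟨f, -, hq⟩ := FiniteField.card F p
  have hq2 : 2 ≤ Fintype.card F := Fintype.one_lt_card
  have hpq : p ∣ Fintype.card F := by
    rw [hq]
    exact dvd_pow_self p f.ne_zero
  have h0 := Cfsg.Agent.S0294.result (F := F) rfl m hm a b hab
  rw [mul_assoc (Fintype.card F ^ (m * (m - 1)))] at h0
  generalize Nat.card (Cfsg.POmega F (Cfsg.quadFormMinus (m - 1) F a b)) = c at h0 ⊢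
  generalize Fintype.card F = q at h0 hq2 hpq hq
  obtain ⟨j, rfl⟩ : ∃ j, m = j + 1 := ⟨m - 1, by omega⟩
  simp only [Nat.add_sub_cancel] at h0
  refine final hp hq f.pos h0 ?_ ?_ (E := (j + 1 + 1) + j * (j + 1)) ?_ (by nlinarith)
  · exact nd_gcd_right (nd_add hp hpq (by omega))
  · exact nd_mul hp (nd_add hp hpq (by omega)) (nd_prod hp _ _ (fun j _ => nd_sub hp hpq (by omega) (by omega)))
  · rw [pow_add q (j + 1 + 1) (j * (j + 1))]
    have hq1 : 1 ≤ q := by omega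
    exact Nat.mul_lt_mul_of_lt_of_le (add_lt hq2 (by omega)) (prod_even_le hq1 j) (Nat.pow_pos hq1)

theorem fam_G2 {F : Type} [Field F] [Fintype F] [CharP F p] (hp : p.Prime) :
    Concl p (Nat.card ↥(Cfsg.Lie.chevG2.group F)) := by
  obtain ⟨f, -, hq⟩ := FiniteField.card F p
  have hq2 : 2 ≤ Fintype.card F := Fintype.one_lt_card
  have hpq : p ∣ Fintype.card F := by
    rw [hq]
    exact dvd_pow_self p f.ne_zero
  have h0 := Cfsg.Agent.S1059.result (F := F) rfl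
  generalize Nat.card ↥(Cfsg.Lie.chevG2.group F) = c at h0 ⊢
  generalize Fintype.card F = q at h0 hq2 hpq hq
  have h1 : 1 * c = q ^ 6 * ((q ^ 2 - 1) * (q ^ 6 - 1)) := by
    rw [one_mul, h0, mul_assoc]
  have hs : ∀ a, 1 ≤ a → ¬ p ∣ q ^ a - 1 := fun a ha => nd_sub hp hpq (by omega) ha
  have ht : ∀ a, q ^ a - 1 < q ^ a := fun a => sub_lt (by omega)
  refine final hp hq f.pos h1 ?_ (nd_mul hp (hs _ (by norm_num)) (hs _ (by norm_num))) (mlt (ht 2) (ht 6)) (by norm_num)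
  intro h
  exact hp.one_lt.ne' (Nat.dvd_one.1 h)

theorem fam_F4 {F : Type} [Field F] [Fintype F] [CharP F p] (hp : p.Prime) :
    Concl p (Nat.card ↥(Cfsg.Lie.chevF4.group F)) := by
  obtain ⟨f, -, hq⟩ := FiniteField.card F p
  have hq2 : 2 ≤ Fintype.card F := Fintype.one_lt_card
  have hpq : p ∣ Fintype.card F := by
    rw [hq]
    exact dvd_pow_self p f.ne_zero
  have h0 := Cfsg.Agent.S1062.result (F := F) rfl
  generalize Nat.card ↥(Cfsg.Lie.chevF4.group F) = c at h0 ⊢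
  generalize Fintype.card F = q at h0 hq2 hpq hq
  have h1 : 1 * c = q ^ 24 * ((q ^ 2 - 1) * (q ^ 6 - 1) * (q ^ 8 - 1) * (q ^ 12 - 1)) := by
    rw [one_mul, h0]
    ring
  have hs : ∀ a, 1 ≤ a → ¬ p ∣ q ^ a - 1 := fun a ha => nd_sub hp hpq (by omega) ha
  have ht : ∀ a, q ^ a - 1 < q ^ a := fun a => sub_lt (by omega)
  have hm := fun x y h₁ h₂ => nd_mul (p := p) (x := x) (y := y) hp h₁ h₂
  refine final hp hq f.pos h1 ?_ (hm _ _ (hm _ _ (hm _ _ (hs _ (by norm_num)) (hs _ (by norm_num))) (hs _ (by norm_num))) (hs _ (by norm_num)))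
    (mlt (mlt (mlt (ht 2) (ht 6)) (ht 8)) (ht 12)) (by norm_num)
  intro h
  exact hp.one_lt.ne' (Nat.dvd_one.1 h)

theorem fam_E6 {F : Type} [Field F] [Fintype F] [CharP F p] (hp : p.Prime) :
    Concl p (Nat.card ↥(Cfsg.Lie.chevE6.group F)) := by
  obtain ⟨f, -, hq⟩ := FiniteField.card F p
  have hq2 : 2 ≤ Fintype.card F := Fintype.one_lt_card
  have hpq : p ∣ Fintype.card F := by
    rw [hq]
    exact dvd_pow_self p f.ne_zero
  have h0 := Cfsg.Agent.S1063.result (F := F) rfl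
  generalize Nat.card ↥(Cfsg.Lie.chevE6.group F) = c at h0 ⊢
  generalize Fintype.card F = q at h0 hq2 hpq hq
  have h1 : Nat.gcd 3 (q - 1) * c = q ^ 36 * ((q ^ 2 - 1) * (q ^ 5 - 1) * (q ^ 6 - 1) * (q ^ 8 - 1) * (q ^ 9 - 1) * (q ^ 12 - 1)) := by
    rw [h0]
    ring
  have hs : ∀ a, 1 ≤ a → ¬ p ∣ q ^ a - 1 := fun a ha => nd_sub hp hpq (by omega) ha
  have ht : ∀ a, q ^ a - 1 < q ^ a := fun a => sub_lt (by omega)
  have hm := fun x y h₁ h₂ => nd_mul (p := p) (x := x) (y := y) hp h₁ h₂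
  refine final hp hq f.pos h1 ?_ (hm _ _ (hm _ _ (hm _ _ (hm _ _ (hm _ _ (hs _ (by norm_num)) (hs _ (by norm_num))) (hs _ (by norm_num))) (hs _ (by norm_num))) (hs _ (by norm_num))) (hs _ (by norm_num)))
    (mlt (mlt (mlt (mlt (mlt (ht 2) (ht 5)) (ht 6)) (ht 8)) (ht 9)) (ht 12)) (by norm_num)
  apply nd_gcd_right
  have := nd_sub (a := 1) hp hpq (by omega) le_rfl
  rwa [pow_one] at this

theorem fam_E7 {F : Type} [Field F] [Fintype F] [CharP F p] (hp : p.Prime) :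
    Concl p (Nat.card ↥(Cfsg.Lie.chevE7.group F)) := by
  obtain ⟨f, -, hq⟩ := FiniteField.card F p
  have hq2 : 2 ≤ Fintype.card F := Fintype.one_lt_card
  have hpq : p ∣ Fintype.card F := by
    rw [hq]
    exact dvd_pow_self p f.ne_zero
  have h0 := Cfsg.Agent.S1064.result (F := F) rfl
  generalize Nat.card ↥(Cfsg.Lie.chevE7.group F) = c at h0 ⊢
  generalize Fintype.card F = q at h0 hq2 hpq hq
  have h1 : Nat.gcd 2 (q - 1) * c = q ^ 63 * ((q ^ 2 - 1) * (q ^ 6 - 1) * (q ^ 8 - 1) * (q ^ 10 - 1) * (q ^ 12 - 1) * (q ^ 14 - 1) * (q ^ 18 - 1)) := by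
    rw [h0]
    ring
  have hs : ∀ a, 1 ≤ a → ¬ p ∣ q ^ a - 1 := fun a ha => nd_sub hp hpq (by omega) ha
  have ht : ∀ a, q ^ a - 1 < q ^ a := fun a => sub_lt (by omega)
  have hm := fun x y h₁ h₂ => nd_mul (p := p) (x := x) (y := y) hp h₁ h₂
  refine final hp hq f.pos h1 ?_ (hm _ _ (hm _ _ (hm _ _ (hm _ _ (hm _ _ (hm _ _ (hs _ (by norm_num)) (hs _ (by norm_num))) (hs _ (by norm_num))) (hs _ (by norm_num))) (hs _ (by norm_num))) (hs _ (by norm_num))) (hs _ (by norm_num)))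
    (mlt (mlt (mlt (mlt (mlt (mlt (ht 2) (ht 6)) (ht 8)) (ht 10)) (ht 12)) (ht 14)) (ht 18)) (by norm_num)
  apply nd_gcd_right
  have := nd_sub (a := 1) hp hpq (by omega) le_rfl
  rwa [pow_one] at this

theorem fam_E8 {F : Type} [Field F] [Fintype F] [CharP F p] (hp : p.Prime) :
    Concl p (Nat.card ↥(Cfsg.Lie.chevE8.group F)) := by
  obtain ⟨f, -, hq⟩ := FiniteField.card F p
  have hq2 : 2 ≤ Fintype.card F := Fintype.one_lt_card
  have hpq : p ∣ Fintype.card F := by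
    rw [hq]
    exact dvd_pow_self p f.ne_zero
  have h0 := Cfsg.Agent.S1065.result (F := F) rfl
  generalize Nat.card ↥(Cfsg.Lie.chevE8.group F) = c at h0 ⊢
  generalize Fintype.card F = q at h0 hq2 hpq hq
  have h1 : 1 * c = q ^ 120 * ((q ^ 2 - 1) * (q ^ 8 - 1) * (q ^ 12 - 1) * (q ^ 14 - 1) * (q ^ 18 - 1) * (q ^ 20 - 1) * (q ^ 24 - 1) * (q ^ 30 - 1)) := by
    rw [one_mul, h0]
    ring
  have hs : ∀ a, 1 ≤ a → ¬ p ∣ q ^ a - 1 := fun a ha => nd_sub hp hpq (by omega) ha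
  have ht : ∀ a, q ^ a - 1 < q ^ a := fun a => sub_lt (by omega)
  have hm := fun x y h₁ h₂ => nd_mul (p := p) (x := x) (y := y) hp h₁ h₂
  refine final hp hq f.pos h1 ?_ (hm _ _ (hm _ _ (hm _ _ (hm _ _ (hm _ _ (hm _ _ (hm _ _ (hs _ (by norm_num)) (hs _ (by norm_num))) (hs _ (by norm_num))) (hs _ (by norm_num))) (hs _ (by norm_num))) (hs _ (by norm_num))) (hs _ (by norm_num))) (hs _ (by norm_num)))
    (mlt (mlt (mlt (mlt (mlt (mlt (mlt (ht 2) (ht 8)) (ht 12)) (ht 14)) (ht 18)) (ht 20)) (ht 24)) (ht 30)) (by norm_num)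
  intro h
  exact hp.one_lt.ne' (Nat.dvd_one.1 h)

theorem fam_2E6 {K : Type} [Field K] [Fintype K] [CharP K p] (hp : p.Prime) {q : ℕ} (hq' : IsPrimePow q) (hK : Fintype.card K = q ^ 2) :
    Concl p (Nat.card ↥(Cfsg.Lie.twistedE6 K q)) := by
  obtain ⟨g, -, hg⟩ := FiniteField.card K p
  obtain ⟨f, hf1, hq⟩ := exists_pow_of_pow (t := 2) hp (by norm_num) (hK.symm.trans hg) g.pos
  have hq2 : 2 ≤ q := hq'.two_le
  have hpq : p ∣ q := by
    rw [hq]
    exact dvd_pow_self p (by omega)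
  have h0 := Cfsg.Agent.S1066.result hq' hK
  generalize Nat.card ↥(Cfsg.Lie.twistedE6 K q) = c at h0 ⊢
  have h1 : Nat.gcd 3 (q + 1) * c = q ^ 36 * ((q ^ 2 - 1) * (q ^ 5 + 1) * (q ^ 6 - 1) * (q ^ 8 - 1) * (q ^ 9 + 1) * (q ^ 12 - 1)) := by
    rw [h0]
    ring
  have hs : ∀ a, 1 ≤ a → ¬ p ∣ q ^ a - 1 := fun a ha => nd_sub hp hpq (by omega) ha
  have hs' : ∀ a, 1 ≤ a → ¬ p ∣ q ^ a + 1 := fun a ha => nd_add hp hpq ha
  have ht : ∀ a, q ^ a - 1 < q ^ a := fun a => sub_lt (by omega)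
  have ht' : ∀ a, 1 ≤ a → q ^ a + 1 < q ^ (a + 1) := fun a ha => add_lt hq2 ha
  have hm := fun x y h₁ h₂ => nd_mul (p := p) (x := x) (y := y) hp h₁ h₂
  refine final hp hq hf1 h1 ?_ (hm _ _ (hm _ _ (hm _ _ (hm _ _ (hm _ _ (hs _ (by norm_num)) (hs' _ (by norm_num))) (hs _ (by norm_num))) (hs _ (by norm_num))) (hs' _ (by norm_num))) (hs _ (by norm_num)))
    (mlt (mlt (mlt (mlt (mlt (ht 2) (ht' 5 (by norm_num))) (ht 6)) (ht 8)) (ht' 9 (by norm_num))) (ht 12)) (by norm_num)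
  apply nd_gcd_right
  have := nd_add (a := 1) hp hpq le_rfl
  rwa [pow_one] at this

theorem fam_3D4 {K : Type} [Field K] [Fintype K] [CharP K p] (hp : p.Prime) {q : ℕ} (hq' : IsPrimePow q) (hK : Fintype.card K = q ^ 3) :
    Concl p (Nat.card ↥(Cfsg.Lie.twistedD4 K q)) := by
  obtain ⟨g, -, hg⟩ := FiniteField.card K p
  obtain ⟨f, hf1, hq⟩ := exists_pow_of_pow (t := 3) hp (by norm_num) (hK.symm.trans hg) g.pos
  have hq2 : 2 ≤ q := hq'.two_le
  have hpq : p ∣ q := by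
    rw [hq]
    exact dvd_pow_self p (by omega)
  have h0 := Cfsg.Agent.S1067.result hq' hK
  generalize Nat.card ↥(Cfsg.Lie.twistedD4 K q) = c at h0 ⊢
  have h1 : 1 * c = q ^ 12 * ((q ^ 2 - 1) * (q ^ 6 - 1) * (q ^ 8 + q ^ 4 + 1)) := by
    rw [one_mul, h0]
    ring
  have hs : ∀ a, 1 ≤ a → ¬ p ∣ q ^ a - 1 := fun a ha => nd_sub hp hpq (by omega) ha
  have ht : ∀ a, q ^ a - 1 < q ^ a := fun a => sub_lt (by omega)
  have hm := fun x y h₁ h₂ => nd_mul (p := p) (x := x) (y := y) hp h₁ h₂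
  have hD : ¬ p ∣ q ^ 8 + q ^ 4 + 1 := by
    intro h
    have h1 : p ∣ q ^ 8 + q ^ 4 := dvd_add (dvd_pow hpq (by norm_num)) (dvd_pow hpq (by norm_num))
    have h3 := (Nat.dvd_add_right h1).1 h
    exact hp.one_lt.ne' (Nat.dvd_one.1 h3)
  have hL : q ^ 8 + q ^ 4 + 1 < q ^ 9 := by
    have h1 : q ^ 4 + 1 < q ^ 8 := by
      have h2 : q ^ 4 + 1 < q ^ 5 := add_lt hq2 (by norm_num)
      exact lt_of_lt_of_le h2 (Nat.pow_le_pow_right (by omega) (by norm_num))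
    have h2 : q ^ 9 = q * q ^ 8 := by ring
    rw [h2]
    have h3 : 2 * q ^ 8 ≤ q * q ^ 8 := Nat.mul_le_mul_right _ hq2
    omega
  refine final hp hq hf1 h1 ?_ (hm _ _ (hm _ _ (hs _ (by norm_num)) (hs _ (by norm_num))) hD) (mlt (mlt (ht 2) (ht 6)) hL) (by norm_num)
  intro h
  exact hp.one_lt.ne' (Nat.dvd_one.1 h)

theorem fam_Sz {F : Type} [Field F] [Fintype F] {m : ℕ} (hm : 1 ≤ m) (hF : Fintype.card F = 2 ^ (2 * m + 1)) :
    Concl 2 (Nat.card ↥(Cfsg.Lie.Sz F (2 ^ (m + 1)))) := by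
  have h0 := (Cfsg.Agent.S1163.result hm hF).1
  generalize Nat.card ↥(Cfsg.Lie.Sz F (2 ^ (m + 1))) = c at h0 ⊢
  have hq2 : 2 ≤ 2 ^ (2 * m + 1) := Nat.le_self_pow (by omega) 2
  have hpq : 2 ∣ 2 ^ (2 * m + 1) := dvd_pow_self 2 (by omega)
  generalize hq : 2 ^ (2 * m + 1) = q at h0 hq2 hpq
  have h1 : 1 * c = q ^ 2 * ((q - 1) * (q ^ 2 + 1)) := by
    rw [one_mul, h0]
    ring
  have hs := nd_sub (a := 1) Nat.prime_two hpq (by omega) le_rfl
  rw [pow_one] at hs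
  refine final Nat.prime_two hq.symm (by omega) h1 (by norm_num) (nd_mul Nat.prime_two hs (nd_add Nat.prime_two hpq (by norm_num))) (E := 3) ?_ (by norm_num)
  obtain ⟨a, rfl⟩ : ∃ a, q = a + 1 := ⟨q - 1, by omega⟩
  simp only [Nat.add_sub_cancel]
  nlinarith [sq_nonneg a]

theorem fam_2F4 {K : Type} [Field K] [Fintype K] {m : ℕ} (hK : Fintype.card K = 2 ^ (2 * m + 1)) :
    Concl 2 (Nat.card ↥(Cfsg.Lie.twistedF4 K (2 ^ m))) := by
  have h0 := Cfsg.Agent.S1068.result hK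
  generalize Nat.card ↥(Cfsg.Lie.twistedF4 K (2 ^ m)) = c at h0 ⊢
  have hq2 : 2 ≤ 2 ^ (2 * m + 1) := Nat.le_self_pow (by omega) 2
  have hpq : 2 ∣ 2 ^ (2 * m + 1) := dvd_pow_self 2 (by omega)
  generalize hq : 2 ^ (2 * m + 1) = q at h0 hq2 hpq
  have h1 : 1 * c = q ^ 12 * ((q - 1) * (q ^ 3 + 1) * (q ^ 4 - 1) * (q ^ 6 + 1)) := by
    rw [one_mul, h0]
    ring
  have hp := Nat.prime_two
  have hs : ∀ a, 1 ≤ a → ¬ 2 ∣ q ^ a - 1 := fun a ha => nd_sub hp hpq (by omega) ha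
  have hs1 := hs 1 le_rfl
  rw [pow_one] at hs1
  have hs' : ∀ a, 1 ≤ a → ¬ 2 ∣ q ^ a + 1 := fun a ha => nd_add hp hpq ha
  have ht1 : q - 1 < q ^ 1 := by
    rw [pow_one]
    omega
  have ht : ∀ a, q ^ a - 1 < q ^ a := fun a => sub_lt (by omega)
  have ht' : ∀ a, 1 ≤ a → q ^ a + 1 < q ^ (a + 1) := fun a ha => add_lt hq2 ha
  have hm := fun x y h₁ h₂ => nd_mul (p := 2) (x := x) (y := y) hp h₁ h₂
  refine final hp hq.symm (by omega) h1 (by norm_num) (hm _ _ (hm _ _ (hm _ _ hs1 (hs' _ (by norm_num))) (hs _ (by norm_num))) (hs' _ (by norm_num)))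
    (mlt (mlt (mlt ht1 (ht' 3 (by norm_num))) (ht 4)) (ht' 6 (by norm_num))) (by norm_num)

theorem fam_2G2 {K : Type} [Field K] [Fintype K] {m : ℕ} (hK : Fintype.card K = 3 ^ (2 * m + 1)) :
    Concl 3 (Nat.card ↥(Cfsg.Lie.twistedG2 K (3 ^ m))) := by
  have h0 := Cfsg.Agent.S1069.result hK
  generalize Nat.card ↥(Cfsg.Lie.twistedG2 K (3 ^ m)) = c at h0 ⊢
  have hq2 : 2 ≤ 3 ^ (2 * m + 1) := le_trans (by norm_num) (Nat.le_self_pow (by omega) 3)
  have hpq : 3 ∣ 3 ^ (2 * m + 1) := dvd_pow_self 3 (by omega)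
  generalize hq : 3 ^ (2 * m + 1) = q at h0 hq2 hpq
  have h1 : 1 * c = q ^ 3 * ((q - 1) * (q ^ 3 + 1)) := by
    rw [one_mul, h0]
    ring
  have hp := Nat.prime_three
  have hs1 := nd_sub (a := 1) hp hpq (by omega) le_rfl
  rw [pow_one] at hs1
  have ht1 : q - 1 < q ^ 1 := by
    rw [pow_one]
    omega
  refine final hp hq.symm (by omega) h1 (by norm_num) (nd_mul hp hs1 (nd_add hp hpq (by norm_num))) (mlt ht1 (add_lt hq2 (a := 3) (by norm_num))) (by norm_num)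

lemma concl_congr {G H : Type*} [Group G] [Group H] (e : G ≃* H) {p : ℕ} (h : Concl p (Nat.card H)) : Concl p (Nat.card G) := by
  rw [Nat.card_congr e.toEquiv]
  exact h

/-- The main theorem. -/
theorem main (hp : p.Prime) (hG : IsLieTypeChar p G) :
    Nat.card G < p ^ (3 * (Nat.card G).factorization p) ∧
      ((¬ ∃ (F : Type) (_ : Field F) (_ : Fintype F), Fintype.card F = p ^ (Nat.card G).factorization p ∧
          Nonempty (G ≃* Matrix.ProjectiveSpecialLinearGroup (Fin 2) F)) →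
        Nat.card G ^ 3 < p ^ (8 * (Nat.card G).factorization p)) := by
  have key : Concl p (Nat.card G) ∨ ∃ (F : Type) (_ : Field F) (_ : Fintype F), Nat.card G < p ^ (3 * (Nat.card G).factorization p) ∧ Fintype.card F = p ^ (Nat.card G).factorization p ∧
          Nonempty (G ≃* Matrix.ProjectiveSpecialLinearGroup (Fin 2) F) := by
    rcases hG with h | h | h | h | h | h | h | h | ⟨rfl, h⟩ | ⟨rfl, h⟩ | ⟨rfl, h⟩
    · obtain ⟨F, _, _, _, n, hn, -, ⟨e⟩⟩ := h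
      obtain ⟨k, rfl⟩ : ∃ k, n = k + 1 := ⟨n - 1, by omega⟩
      by_cases hk : 2 ≤ k
      · exact Or.inl (concl_congr e (fam_PSL_big hp k hk))
      · have hk1 : k = 1 := by omega
        subst hk1
        right
        have h2 := fam_PSL_two (F := F) hp
        rw [Nat.card_congr e.toEquiv]
        exact ⟨F, _, _, h2.1, h2.2, ⟨e⟩⟩
    · obtain ⟨F, _, _, _, m, hm, -, ⟨e⟩⟩ := h
      exact Or.inl (concl_congr e (fam_PSp hp m hm))
    · obtain ⟨F, _, _, _, n, q, hF, hn, -, ⟨e⟩⟩ := h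
      obtain ⟨k, rfl⟩ : ∃ k, n = k + 1 := ⟨n - 1, by omega⟩
      exact Or.inl (concl_congr e (fam_PSU hp hF k (by omega)))
    · obtain ⟨F, _, _, _, m, hm, hodd, ⟨e⟩⟩ := h
      exact Or.inl (concl_congr e (fam_POdd hp hodd m hm))
    · obtain ⟨F, _, _, _, m, hm, ⟨e⟩⟩ := h
      exact Or.inl (concl_congr e (fam_PPlus hp m hm))
    · obtain ⟨F, _, _, _, m, a, b, hm, hab, ⟨e⟩⟩ := h
      exact Or.inl (concl_congr e (fam_PMinus hp m hm a b hab))
    · obtain ⟨F, _, _, _, ⟨-, ⟨e⟩⟩ | ⟨⟨e⟩⟩ | ⟨⟨e⟩⟩ | ⟨⟨e⟩⟩ | ⟨⟨e⟩⟩⟩ := h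
      · exact Or.inl (concl_congr e (fam_G2 hp))
      · exact Or.inl (concl_congr e (fam_F4 hp))
      · exact Or.inl (concl_congr e (fam_E6 hp))
      · exact Or.inl (concl_congr e (fam_E7 hp))
      · exact Or.inl (concl_congr e (fam_E8 hp))
    · obtain ⟨K, _, _, _, q, hq, ⟨hK, ⟨e⟩⟩ | ⟨hK, ⟨e⟩⟩⟩ := h
      · exact Or.inl (concl_congr e (fam_2E6 hp hq hK))
      · exact Or.inl (concl_congr e (fam_3D4 hp hq hK))
    · obtain ⟨F, _, _, m, hm, hF, ⟨e⟩⟩ := h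
      exact Or.inl (concl_congr e (fam_Sz hm hF))
    · obtain ⟨K, _, _, m, -, hK, ⟨e⟩⟩ := h
      exact Or.inl (concl_congr e (fam_2F4 hK))
    · obtain ⟨K, _, _, m, -, hK, ⟨e⟩⟩ := h
      exact Or.inl (concl_congr e (fam_2G2 hK))
  rcases key with h | ⟨F, i1, i2, h1, h2, h3⟩
  · exact ⟨h.1, fun _ => h.2⟩
  · exact ⟨h1, fun h4 => absurd ⟨F, i1, i2, h2, h3⟩ h4⟩

end CfsgLib.OB
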